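import Mathlib
import Cfsg.Agent.ChevalleyStructure.CoxeterGeom

/-!
# Word identities in the Coxeter group of type `Y433` (the spider with 11 nodes)

`wordEq` : if two words in the 11 nodes act in the same way on the root lattice, then the corresponding products agree
in every group whose elements `x 1, ..., x 11` satisfy the Coxeter relations of the diagram `edges`.
-/

set_option autoImplicit false

namespace Cfsg.Agent.H138.CoxEng

open Cfsg.Agent.ChevalleyStructure.CoxeterGeom

/-- The edges of the diagram `Y433`. -/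
def edges : List (ℕ × ℕ) := [(1,2),(2,3),(3,4),(4,5),(5,6),(6,7),(7,8),(5,9),(9,10),(10,11)]

/-- The rows of the Cartan matrix. -/
def rows : List (List ℤ) :=
  [[2, -1, 0, 0, 0, 0, 0, 0, 0, 0, 0],
   [-1, 2, -1, 0, 0, 0, 0, 0, 0, 0, 0],
   [0, -1, 2, -1, 0, 0, 0, 0, 0, 0, 0],
   [0, 0, -1, 2, -1, 0, 0, 0, 0, 0, 0],
   [0, 0, 0, -1, 2, -1, 0, 0, -1, 0, 0],
   [0, 0, 0, 0, -1, 2, -1, 0, 0, 0, 0],
   [0, 0, 0, 0, 0, -1, 2, -1, 0, 0, 0],
   [0, 0, 0, 0, 0, 0, -1, 2, 0, 0, 0],
   [0, 0, 0, 0, -1, 0, 0, 0, 2, -1, 0],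
   [0, 0, 0, 0, 0, 0, 0, 0, -1, 2, -1],
   [0, 0, 0, 0, 0, 0, 0, 0, 0, -1, 2]]

/-- The Cartan matrix. -/
def A (i j : Fin 11) : ℤ := (rows.getD i []).getD j 0

/-- The Coxeter numbers. -/
def m (i j : Fin 11) : ℕ := if i = j then 1 else if A i j = -1 then 3 else 2

/-- The Coxeter matrix. -/
def M : CoxeterMatrix (Fin 11) where
  M := Matrix.of m
  isSymm := by
    have h : ∀ i j : Fin 11, m j i = m i j := by decide +kernel
    ext i j
    exact h i j
  diagonal := by
    intro i
    simp [m]
  off_diagonal := by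
    intro i j hij
    simp only [Matrix.of_apply, m, if_neg hij]
    split_ifs <;> omega

theorem M_apply (i j : Fin 11) : M i j = m i j := rfl

theorem cartan : IsCartan M A where
  diag := by decide +kernel
  rel := by
    have h : ∀ i j : Fin 11, i ≠ j → (m i j = 2 ∧ A i j = 0 ∧ A j i = 0) ∨ (m i j = 3 ∧ A i j = -1 ∧ A j i = -1) := by
      decide +kernel
    intro i j hij
    rw [M_apply]
    rcases h i j hij with h1 | h1
    · exact Or.inl h1
    · exact Or.inr (Or.inl h1)

/-! ### Computing with the heights of the images of the simple roots -/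

/-- If `f j` is the height of `w (α_j)`, then `st i f` gives the heights of `(w s_i) (α_j)`. -/
def st (i : ℕ) (f : List ℤ) : List ℤ := List.zipWith (fun a b => b - a * f.getD i 0) (rows.getD i []) f

/-- A word (letters `1, ..., 11`) acting on the heights. -/
def act : List ℕ → List ℤ → List ℤ
  | [], f => f
  | n :: w, f => act w (st (n - 1) f)

/-- All letters lie in `1, ..., 11`. -/
def good (w : List ℕ) : Bool := w.all fun n => Nat.ble 1 n && Nat.ble n 11

/-- All entries are `1`. -/
def ones : List ℤ → Bool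
  | [] => true
  | a :: as => (decide (a = 1)) && ones as

/-- The check. -/
def chk (u v : List ℕ) : Bool := good u && good v && ones (act (u ++ v.reverse) [1,1,1,1,1,1,1,1,1,1,1])

/-! ### The abstract Coxeter group -/

/-- The Coxeter system. -/
noncomputable def cs : CoxeterSystem M M.Group := M.toCoxeterSystem

/-- The node of a letter. -/
def nd (n : ℕ) : Fin 11 := Fin.ofNat 11 (n - 1)

/-- The element of the Coxeter group of a word. -/
noncomputable def W (w : List ℕ) : M.Group := (w.map fun n => cs.simple (nd n)).prod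

theorem nd_val {n : ℕ} (h1 : 1 ≤ n) (h2 : n ≤ 11) : ((nd n : Fin 11) : ℕ) = n - 1 := by
  simp only [nd, Fin.val_ofNat]
  exact Nat.mod_eq_of_lt (by omega)

theorem good_cons {n : ℕ} {w : List ℕ} (h : good (n :: w) = true) : (1 ≤ n ∧ n ≤ 11) ∧ good w = true := by
  simp only [good, List.all_cons, Bool.and_eq_true, Nat.ble_eq] at h ⊢
  exact h

/-- The height. -/
def ht (v : Fin 11 → ℤ) : ℤ := ∑ k, v k

theorem ht_sub (v w : Fin 11 → ℤ) : ht (v - w) = ht v - ht w := by
  simp [ht]

theorem ht_smul (c : ℤ) (v : Fin 11 → ℤ) : ht (c • v) = c * ht v := by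
  simp [ht, Finset.mul_sum]

/-- `f` lists the heights of the images of the simple roots under `g`. -/
def Hts (f : List ℤ) (g : M.Group) : Prop :=
  f.length = 11 ∧ ∀ j : Fin 11, f.getD j 0 = ht (rep cs cartan g (Pi.single j 1))

theorem Hts.step {f : List ℤ} {g : M.Group} (h : Hts f g) (i : Fin 11) : Hts (st i f) (g * cs.simple i) := by
  have hlen : (rows.getD (i : ℕ) []).length = 11 := by
    revert i; decide +kernel
  refine ⟨?_, fun j => ?_⟩
  · rw [st, List.length_zipWith, hlen, h.1, min_self]
  · rw [rep_mul_apply, rep_simple, refl_single, mul_one]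
    have h1 : (Pi.single i (A i j) : Fin 11 → ℤ) = A i j • Pi.single i 1 := by
      rw [← Pi.single_smul, smul_eq_mul, mul_one]
    rw [h1, map_sub, map_zsmul, ht_sub, ht_smul, ← h.2 j, ← h.2 i]
    have hj1 : (j : ℕ) < f.length := by rw [h.1]; exact j.2
    have hj2 : (j : ℕ) < (rows.getD (i : ℕ) []).length := by rw [hlen]; exact j.2
    have hj3 : (j : ℕ) < (st i f).length := by simp only [st, List.length_zipWith]; omega
    rw [List.getD_eq_getElem _ _ hj3, List.getD_eq_getElem _ _ hj1]
    simp only [st, List.getElem_zipWith]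
    rw [A, List.getD_eq_getElem _ _ hj2]

theorem Hts.act : ∀ (w : List ℕ) (f : List ℤ) (g : M.Group), good w = true → Hts f g →
    Hts (CoxEng.act w f) (g * W w) := by
  intro w
  induction w with
  | nil => intro f g _ h; simpa [W, CoxEng.act] using h
  | cons n w ih =>
    intro f g hw h
    obtain ⟨⟨h1, h2⟩, h3⟩ := good_cons hw
    have hW : W (n :: w) = cs.simple (nd n) * W w := by simp [W]
    have := ih _ _ h3 (h.step (nd n))
    rw [nd_val h1 h2] at this
    rw [hW, ← mul_assoc]
    exact this

theorem ones_getD : ∀ (f : List ℤ), ones f = true → ∀ j < f.length, f.getD j 0 = 1 := by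
  intro f
  induction f with
  | nil => intro _ j hj; simp at hj
  | cons a f ih =>
    intro h j hj
    simp only [ones, Bool.and_eq_true, decide_eq_true_eq] at h
    cases j with
    | zero => simpa using h.1
    | succ j => simpa using ih h.2 j (by simpa using hj)

theorem W_append (u v : List ℕ) : W (u ++ v) = W u * W v := by
  simp [W]

theorem W_reverse (w : List ℕ) : W w.reverse = (W w)⁻¹ := by
  induction w with
  | nil => simp [W]
  | cons n w ih =>
    have hW : W (n :: w) = cs.simple (nd n) * W w := by simp [W]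
    have h1 : W [n] = cs.simple (nd n) := by simp [W]
    rw [List.reverse_cons, W_append, ih, hW, mul_inv_rev, cs.inv_simple, h1]

theorem good_append {u v : List ℕ} (hu : good u = true) (hv : good v = true) : good (u ++ v) = true := by
  simp only [good, List.all_append, Bool.and_eq_true] at hu hv ⊢
  exact ⟨hu, hv⟩

theorem good_reverse {u : List ℕ} (hu : good u = true) : good u.reverse = true := by
  simpa only [good, List.all_reverse] using hu

theorem W_eq (u v : List ℕ) (h : chk u v = true) : W u = W v := by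
  simp only [chk, Bool.and_eq_true] at h
  obtain ⟨⟨hu, hv⟩, h⟩ := h
  have h0 : Hts [1,1,1,1,1,1,1,1,1,1,1] (1 : M.Group) := by
    refine ⟨rfl, fun j => ?_⟩
    rw [map_one, Module.End.one_apply, ht, Finset.sum_pi_single']
    simp only [Finset.mem_univ, if_true]
    revert j; decide +kernel
  have h1 := Hts.act (u ++ v.reverse) _ 1 (good_append hu (good_reverse hv)) h0
  rw [one_mul, W_append, W_reverse] at h1
  refine mul_inv_eq_one.1 (eq_one_of_nonneg cs cartan _ fun j => ?_)
  have h2 := h1.2 j
  rw [ones_getD _ h j (by rw [h1.1]; exact j.2)] at h2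
  rcases nonneg_or_nonpos cs cartan (W u * (W v)⁻¹) j with h3 | h3
  · exact h3
  · exfalso
    have : ht (rep cs cartan (W u * (W v)⁻¹) (Pi.single j 1)) ≤ 0 := Finset.sum_nonpos fun k _ => h3 k
    omega

/-! ### Transfer to a group with a system of elements satisfying the Coxeter relations -/

section Transfer

variable {E : Type*} [Group E]

/-- The product of a word. -/
def P (x : ℕ → E) (w : List ℕ) : E := (w.map x).prod

variable (x : ℕ → E)

theorem P_append (u v : List ℕ) : P x (u ++ v) = P x u * P x v := by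
  simp [P]

theorem P_nil : P x [] = 1 := rfl

theorem P_cons (n : ℕ) (w : List ℕ) : P x (n :: w) = x n * P x w := by
  simp [P]

theorem P_single (n : ℕ) : P x [n] = x n := by
  simp [P]

/-- The power of a word. -/
def pw (w : List ℕ) : ℕ → List ℕ
  | 0 => []
  | n + 1 => w ++ pw w n

theorem P_pw (w : List ℕ) (n : ℕ) : P x (pw w n) = P x w ^ n := by
  induction n with
  | zero => simp [pw, P]
  | succ n ih => rw [pw, P_append, ih, pow_succ']

variable {x}
variable (sq : ∀ i, 1 ≤ i → i ≤ 11 → x i * x i = 1)
  (cm : ∀ i j, 1 ≤ i → i < j → j ≤ 11 → (i, j) ∉ edges → x i * x j = x j * x i)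
  (br : ∀ i j, (i, j) ∈ edges → x i * x j * x i = x j * x i * x j)

include sq in
theorem P_reverse (w : List ℕ) (hw : good w = true) : P x w.reverse = (P x w)⁻¹ := by
  induction w with
  | nil => simp [P]
  | cons n w ih =>
    obtain ⟨⟨h1, h2⟩, h3⟩ := good_cons hw
    rw [List.reverse_cons, P_append, P_single, P_cons, ih h3, mul_inv_rev]
    congr 1
    exact eq_inv_of_mul_eq_one_left (sq n h1 h2)

include sq cm br in
theorem liftable : M.IsLiftable (fun i : Fin 11 => x (i + 1)) := by
  have h : ∀ i j : Fin 11, (i : ℕ) < j →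
      (((i : ℕ) + 1, (j : ℕ) + 1) ∉ edges ∧ m i j = 2 ∧ m j i = 2) ∨
      (((i : ℕ) + 1, (j : ℕ) + 1) ∈ edges ∧ m i j = 3 ∧ m j i = 3) := by
    decide +kernel
  intro i j
  rw [M_apply]
  have hi := sq (i + 1) (by omega) (by omega)
  have hj := sq (j + 1) (by omega) (by omega)
  rcases lt_trichotomy (i : ℕ) (j : ℕ) with hij | hij | hij
  · rcases h i j hij with ⟨h1, h2, -⟩ | ⟨h1, h2, -⟩
    · have hc := cm (i + 1) (j + 1) (by omega) (by omega) (by omega) h1
      rw [h2, pow_two]
      calc x (i + 1) * x (j + 1) * (x (i + 1) * x (j + 1)) 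
          = x (i + 1) * (x (j + 1) * x (i + 1)) * x (j + 1) := by group
        _ = x (i + 1) * (x (i + 1) * x (j + 1)) * x (j + 1) := by rw [hc]
        _ = (x (i + 1) * x (i + 1)) * (x (j + 1) * x (j + 1)) := by group
        _ = 1 := by rw [hi, hj, one_mul]
    · have hc := br (i + 1) (j + 1) h1
      rw [h2]
      calc (x (i + 1) * x (j + 1)) ^ 3 
          = (x (i + 1) * x (j + 1) * x (i + 1)) * (x (j + 1) * x (i + 1) * x (j + 1)) := by
            rw [pow_succ, pow_two]; simp only [mul_assoc]
        _ = (x (j + 1) * x (i + 1) * x (j + 1)) * (x (j + 1) * x (i + 1) * x (j + 1)) := by rw [hc]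
        _ = x (j + 1) * (x (i + 1) * (x (j + 1) * x (j + 1)) * x (i + 1)) * x (j + 1) := by group
        _ = 1 := by rw [hj, mul_one, hi, mul_one, hj]
  · have hij' : i = j := Fin.ext hij
    subst hij'
    have : m i i = 1 := by simp [m]
    rw [this, pow_one, hi]
  · rcases h j i hij with ⟨h1, -, h2⟩ | ⟨h1, -, h2⟩
    · have hc := cm (j + 1) (i + 1) (by omega) (by omega) (by omega) h1
      rw [h2, pow_two]
      calc x (i + 1) * x (j + 1) * (x (i + 1) * x (j + 1)) 
          = x (i + 1) * (x (j + 1) * x (i + 1)) * x (j + 1) := by group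
        _ = x (i + 1) * (x (i + 1) * x (j + 1)) * x (j + 1) := by rw [hc]
        _ = (x (i + 1) * x (i + 1)) * (x (j + 1) * x (j + 1)) := by group
        _ = 1 := by rw [hi, hj, one_mul]
    · have hc := br (j + 1) (i + 1) h1
      rw [h2]
      calc (x (i + 1) * x (j + 1)) ^ 3 
          = (x (i + 1) * x (j + 1) * x (i + 1)) * (x (j + 1) * x (i + 1) * x (j + 1)) := by
            rw [pow_succ, pow_two]; simp only [mul_assoc]
        _ = (x (i + 1) * x (j + 1) * x (i + 1)) * (x (i + 1) * x (j + 1) * x (i + 1)) := by rw [hc]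
        _ = x (i + 1) * (x (j + 1) * (x (i + 1) * x (i + 1)) * x (j + 1)) * x (i + 1) := by group
        _ = 1 := by rw [hi, mul_one, hj, mul_one, hi]

include sq cm br in
/-- **Word identities.** -/
theorem wordEq (u v : List ℕ) (h : chk u v = true) : P x u = P x v := by
  have hL := liftable sq cm br
  have hP : ∀ w : List ℕ, good w = true → P x w = cs.lift ⟨_, hL⟩ (W w) := by
    intro w hw
    induction w with
    | nil => simp [P, W]
    | cons n w ih =>
      obtain ⟨⟨h1, h2⟩, h3⟩ := good_cons hw
      have : W (n :: w) = cs.simple (nd n) * W w := by simp [W]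
      rw [P_cons, this, map_mul, ← ih h3, cs.lift_apply_simple hL, nd_val h1 h2, Nat.sub_add_cancel h1]
  have h' := h
  simp only [chk, Bool.and_eq_true] at h'
  rw [hP u h'.1.1, hP v h'.1.2, W_eq u v h]

end Transfer

end Cfsg.Agent.H138.CoxEng
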