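import Cfsg.Agent.ChevalleyStructure.CoxeterElement

/-!
# Coxeter groups: equality of words, generation and centres by computation with integer vectors (helper138)
-/

set_option autoImplicit false

namespace Cfsg.Agent.H138.CoxGen

open Cfsg.Agent.ChevalleyStructure.CoxeterFaithful Cfsg.Agent.ChevalleyStructure.CoxeterElement

/-- Apply a word in the simple reflections to a list of integers. -/
def app {l : ℕ} (rows : List (List ℤ)) (w : List (Fin l)) (v : List ℤ) : List ℤ :=
  w.foldr (fun (i : Fin l) v => step rows i.1 v) v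

/-- The rows have the right length. -/
def rowsOK (rows : List (List ℤ)) (l : ℕ) : Bool :=
  (List.range l).all fun i => (rows.getD i []).length == l

variable {l : ℕ} {M : CoxeterMatrix (Fin l)} {rows : List (List ℤ)}

/-- The value of a word in the group. -/
def ev (M : CoxeterMatrix (Fin l)) (w : List (Fin l)) : M.Group := (w.map M.simple).prod

theorem rowsOK_spec (h : rowsOK rows l = true) : ∀ i < l, (rows.getD i []).length = l := by
  simp only [rowsOK, List.all_eq_true, List.mem_range, beq_iff_eq] at h
  exact h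

theorem rep_ev (hM : Compat M (mat rows l)) (hr : rowsOK rows l = true) (w : List (Fin l))
    (v : List ℤ) (hv : v.length = l) :
    (app rows w v).length = l ∧
      reflRep M.toCoxeterSystem hM (ev M w) (vec l v) = vec l (app rows w v) := by
  have h := vec_foldr l rows (rowsOK_spec hr) v hv w
  refine ⟨h.1, ?_⟩
  have h2 : vec l (app rows w v) = _ := h.2
  rw [h2, ev, map_list_prod, List.map_map]
  have e : List.map (⇑(reflRep M.toCoxeterSystem hM) ∘ M.simple) w = List.map (refl (mat rows l)) w :=
    List.map_congr_left fun i _ => reflRep_simple M.toCoxeterSystem hM i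
  rw [e]

theorem ev_eq (hM : Compat M (mat rows l)) (hr : rowsOK rows l = true) {w₁ w₂ : List (Fin l)}
    (h : ∀ i < l, app rows w₁ (unitL l i) = app rows w₂ (unitL l i)) : ev M w₁ = ev M w₂ := by
  apply reflRep_injective M.toCoxeterSystem hM
  refine ext_unit fun i => ?_
  rw [← vec_unitL l i, (rep_ev hM hr w₁ _ (length_unitL l i)).2,
    (rep_ev hM hr w₂ _ (length_unitL l i)).2, h i i.2]

theorem vec_injOn {v w : List ℤ} (hv : v.length = l) (hw : w.length = l) (h : vec l v = vec l w) :
    v = w := by
  refine List.ext_getElem (by rw [hv, hw]) fun n hn1 hn2 => ?_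
  have h6 := congrFun h ⟨n, by rwa [hv] at hn1⟩
  simp only [vec] at h6
  rwa [List.getD_eq_getElem _ _ hn1, List.getD_eq_getElem _ _ hn2] at h6

theorem ev_ne (hM : Compat M (mat rows l)) (hr : rowsOK rows l = true) {w₁ w₂ : List (Fin l)} {i : ℕ}
    (h : app rows w₁ (unitL l i) ≠ app rows w₂ (unitL l i)) : ev M w₁ ≠ ev M w₂ := by
  intro e
  apply h
  have h1 := rep_ev hM hr w₁ _ (length_unitL l i)
  have h2 := rep_ev hM hr w₂ _ (length_unitL l i)
  refine vec_injOn h1.1 h2.1 ?_
  rw [← h1.2, ← h2.2, e]

/-! ### Generation -/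

/-- The word in the simple reflections of a word in the generators. -/
def sub (gens : List (List (Fin l))) (u : List ℕ) : List (Fin l) := u.flatMap fun a => gens.getD a []

/-- For every simple reflection a certificate `s_j * u = u'` with `u`, `u'` words in the generators. -/
def checkGen (rows : List (List ℤ)) (gens : List (List (Fin l))) (cert : List (List ℕ × List ℕ)) : Bool :=
  (List.finRange l).all fun j =>
    let c := cert.getD j ([], [])
    (List.range l).all fun i =>
      app rows (j :: sub gens c.1) (unitL l i) == app rows (sub gens c.2) (unitL l i)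

theorem ev_append (w₁ w₂ : List (Fin l)) : ev M (w₁ ++ w₂) = ev M w₁ * ev M w₂ := by
  rw [ev, List.map_append, List.prod_append]; rfl

theorem ev_cons (i : Fin l) (w : List (Fin l)) : ev M (i :: w) = M.simple i * ev M w := by
  rw [ev, List.map_cons, List.prod_cons]; rfl

theorem ev_sub_mem {gens : List (List (Fin l))} {H : Subgroup M.Group} (hS : ∀ g ∈ gens, ev M g ∈ H)
    (u : List ℕ) : ev M (sub gens u) ∈ H := by
  induction u with
  | nil => exact one_mem _
  | cons a u ih =>
    have e : sub gens (a :: u) = gens.getD a [] ++ sub gens u := rfl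
    rw [e, ev_append]
    refine mul_mem ?_ ih
    by_cases ha : a < gens.length
    · rw [List.getD_eq_getElem _ _ ha]
      exact hS _ (List.getElem_mem ha)
    · rw [List.getD_eq_default _ _ (not_lt.1 ha)]
      exact one_mem _

theorem eq_top_of_check (hM : Compat M (mat rows l)) (hr : rowsOK rows l = true)
    {gens : List (List (Fin l))} {cert : List (List ℕ × List ℕ)} (hc : checkGen rows gens cert = true)
    {H : Subgroup M.Group} (hS : ∀ g ∈ gens, ev M g ∈ H) : H = ⊤ := by
  simp only [checkGen, List.all_eq_true, List.mem_range, beq_iff_eq] at hc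
  rw [eq_top_iff, ← M.toCoxeterSystem.subgroup_closure_range_simple, Subgroup.closure_le]
  rintro _ ⟨j, rfl⟩
  have h := ev_eq hM hr (hc j (List.mem_finRange j))
  rw [ev_cons] at h
  have e : M.toCoxeterSystem.simple j = ev M (sub gens (cert.getD j ([], [])).2) *
      (ev M (sub gens (cert.getD j ([], [])).1))⁻¹ := by
    rw [eq_mul_inv_iff_mul_eq]
    exact h
  rw [e]
  exact mul_mem (ev_sub_mem hS _) (inv_mem (ev_sub_mem hS _))

/-! ### Centres -/

theorem refl_eq_neg {A : Fin l → Fin l → ℤ} {i : Fin l} {v : Fin l → ℤ} (h : refl A i v = -v) :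
    v = v i • (Pi.single i (1 : ℤ) : Fin l → ℤ) := by
  rw [refl_eq] at h
  funext k
  have hk := congrFun h k
  simp only [Pi.sub_apply, Pi.smul_apply, Pi.single_apply, Pi.neg_apply, smul_eq_mul] at hk ⊢
  by_cases hki : k = i
  · subst hki; simp
  · simp only [if_neg hki, mul_zero] at hk ⊢
    omega

/-- A central element acts by scalars on the root lattice. -/
theorem center_scalar (hM : Compat M (mat rows l)) {z : M.Group} (hz : z ∈ Subgroup.center M.Group)
    (d : Fin l → ℕ) (r : Fin l)
    (hd : ∀ i, i ≠ r → ∃ j, d j < d i ∧ mat rows l i j ≠ 0) :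
    ∃ c : ℤ, ∀ i, reflRep M.toCoxeterSystem hM z (Pi.single i (1 : ℤ)) = c • (Pi.single i (1 : ℤ) : Fin l → ℤ) := by
  classical
  set ρ := reflRep M.toCoxeterSystem hM with hρ
  have hs : ∀ i, ρ (M.simple i) = refl (mat rows l) i := fun i =>
    reflRep_simple M.toCoxeterSystem hM i
  have hcomm : ∀ i x, refl (mat rows l) i (ρ z x) = ρ z (refl (mat rows l) i x) := by
    intro i x
    rw [← hs, ← end_mul_apply, ← end_mul_apply, ← map_mul, ← map_mul,
      (Subgroup.mem_center_iff.1 hz (M.simple i))]
  let c : Fin l → ℤ := fun i => ρ z (Pi.single i (1 : ℤ)) i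
  have hc : ∀ i, ρ z (Pi.single i (1 : ℤ)) = c i • (Pi.single i (1 : ℤ) : Fin l → ℤ) := by
    intro i
    apply refl_eq_neg (A := mat rows l)
    rw [hcomm, refl_single_self _ i (hM.1 i), map_neg]
  have hadj : ∀ i j, mat rows l i j ≠ 0 → c i = c j := by
    intro i j hij
    by_cases e : i = j
    · rw [e]
    have h1 := hcomm i (Pi.single j (1 : ℤ))
    rw [hc j, refl_eq, fnl_smul, fnl_single, refl_eq, fnl_single, map_sub, map_zsmul, hc i, hc j] at h1
    have h2 := congrFun h1 i
    simp only [Pi.sub_apply, Pi.smul_apply, Pi.single_apply, smul_eq_mul, if_neg e, if_true,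
      mul_zero, zero_sub, mul_one] at h2
    have h3 : mat rows l i j * c i = mat rows l i j * c j := by linarith
    exact mul_left_cancel₀ hij h3
  refine ⟨c r, fun i => ?_⟩
  have key : ∀ n, ∀ i, d i = n → c i = c r := by
    intro n
    induction n using Nat.strong_induction_on with
    | _ n ih =>
      intro i hi
      by_cases e : i = r
      · rw [e]
      · obtain ⟨j, h1, h2⟩ := hd i e
        rw [hadj i j h2, ih (d j) (hi ▸ h1) j rfl]
  rw [hc i, key _ i rfl]

/-- A central element acts by `1` or `-1`. -/
theorem center_scalar_one (hM : Compat M (mat rows l)) {z : M.Group} (hz : z ∈ Subgroup.center M.Group)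
    (d : Fin l → ℕ) (r : Fin l)
    (hd : ∀ i, i ≠ r → ∃ j, d j < d i ∧ mat rows l i j ≠ 0) :
    z = 1 ∨ reflRep M.toCoxeterSystem hM z = -1 := by
  obtain ⟨c, hc⟩ := center_scalar hM hz d r hd
  obtain ⟨c', hc'⟩ := center_scalar hM (inv_mem hz) d r hd
  have h1 : c * c' = 1 := by
    have h := congrArg (fun g => reflRep M.toCoxeterSystem hM g (Pi.single r (1 : ℤ)) r) (mul_inv_cancel z)
    simp only [map_mul, map_one, end_mul_apply, end_one_apply, hc', map_zsmul, hc] at h
    simpa [mul_comm] using h
  rcases Int.isUnit_iff.1 (IsUnit.of_mul_eq_one _ h1) with h2 | h2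
  · left
    apply reflRep_injective M.toCoxeterSystem hM
    rw [map_one]
    refine ext_unit fun i => ?_
    rw [hc, h2, one_zsmul, end_one_apply]
  · right
    refine ext_unit fun i => ?_
    rw [hc, h2, neg_one_zsmul]
    rfl

/-- The `k`-th power of the Coxeter element acts as `-1`: check. -/
def checkNeg (rows : List (List ℤ)) (l k : ℕ) : Bool :=
  (List.range l).all fun i => coxIter rows l k (unitL l i) == (unitL l i).map fun x => -x

theorem vec_neg (v : List ℤ) : vec l (v.map fun x => -x) = -vec l v := by
  funext i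
  simp only [vec, Pi.neg_apply, List.getD_eq_getElem?_getD, List.getElem?_map]
  cases v[(i : ℕ)]? <;> simp

theorem rep_cox (hM : Compat M (mat rows l)) :
    reflRep M.toCoxeterSystem hM ((List.finRange l).map M.simple).prod = coxEnd rows l := by
  rw [map_list_prod, List.map_map, coxEnd]
  exact congrArg List.prod
    (List.map_congr_left fun i _ => reflRep_simple M.toCoxeterSystem hM i)

theorem rep_cox_pow (hM : Compat M (mat rows l)) (hr : rowsOK rows l = true) {k : ℕ}
    (hk : checkNeg rows l k = true) :
    reflRep M.toCoxeterSystem hM (((List.finRange l).map M.simple).prod ^ k) = -1 := by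
  simp only [checkNeg, List.all_eq_true, List.mem_range, beq_iff_eq] at hk
  rw [map_pow, rep_cox]
  refine ext_unit fun i => ?_
  rw [← vec_unitL l i, ← (vec_coxIter l rows (rowsOK_spec hr) _ (length_unitL l i) k).2, hk i i.2,
    vec_neg]
  rfl

theorem neg_ne (hl : 0 < l) : (-1 : AddMonoid.End (Fin l → ℤ)) ≠ 1 := by
  intro h
  have h1 := congrArg (fun f : AddMonoid.End (Fin l → ℤ) => f (fun _ => (1 : ℤ)) ⟨0, hl⟩) h
  have h2 : (-1 : ℤ) = 1 := h1
  omega

/-- The centre is generated by a power of the Coxeter element, of order two. -/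
theorem center_two (hM : Compat M (mat rows l)) (hr : rowsOK rows l = true) (hl : 0 < l) {k : ℕ}
    (hk : checkNeg rows l k = true) (d : Fin l → ℕ) (r : Fin l)
    (hd : ∀ i, i ≠ r → ∃ j, d j < d i ∧ mat rows l i j ≠ 0) :
    Nat.card (Subgroup.center M.Group) = 2 ∧
      Subgroup.center M.Group ≤ Subgroup.zpowers ((List.finRange l).map M.simple).prod := by
  set c := ((List.finRange l).map M.simple).prod with hc
  have h1 : reflRep M.toCoxeterSystem hM (c ^ k) = -1 := rep_cox_pow hM hr hk
  have hz : c ^ k ∈ Subgroup.center M.Group := by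
    rw [Subgroup.mem_center_iff]
    intro g
    apply reflRep_injective M.toCoxeterSystem hM
    rw [map_mul, map_mul, h1]
    refine end_ext fun x => ?_
    rw [end_mul_apply, end_mul_apply]
    change reflRep M.toCoxeterSystem hM g (-x) = -(reflRep M.toCoxeterSystem hM g x)
    rw [map_neg]
  have hne : c ^ k ≠ 1 := by
    intro h
    rw [h, map_one] at h1
    exact neg_ne hl h1.symm
  have hall : ∀ z ∈ Subgroup.center M.Group, z = 1 ∨ z = c ^ k := by
    intro z hz
    rcases center_scalar_one hM hz d r hd with h | h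
    · exact Or.inl h
    · exact Or.inr (reflRep_injective M.toCoxeterSystem hM (h.trans h1.symm))
  constructor
  · have h2 : (Subgroup.center M.Group : Set M.Group) = {1, c ^ k} := by
      ext z
      simp only [SetLike.mem_coe, Set.mem_insert_iff, Set.mem_singleton_iff]
      refine ⟨hall z, ?_⟩
      rintro (rfl | rfl)
      · exact one_mem _
      · exact hz
    have h3 : Nat.card (Subgroup.center M.Group) = Set.ncard (Subgroup.center M.Group : Set M.Group) := rfl
    rw [h3, h2, Set.ncard_pair hne.symm]
  · intro z hz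
    rcases hall z hz with rfl | rfl
    · exact one_mem _
    · exact Subgroup.npow_mem_zpowers _ _

/-- A vector fixed modulo `m` by all simple reflections is fixed modulo `m` by the whole group. -/
theorem fixed_mod (hM : Compat M (mat rows l)) (m : ℤ) (v : Fin l → ℤ)
    (hv : ∀ i, m ∣ fnl (mat rows l) i v) (g : M.Group) :
    ∃ x : Fin l → ℤ, reflRep M.toCoxeterSystem hM g v = v + m • x := by
  induction g using M.toCoxeterSystem.simple_induction_right with
  | one => exact ⟨0, by rw [map_one, end_one_apply, smul_zero, add_zero]⟩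
  | mul_simple_right w i ih =>
    obtain ⟨x, hx⟩ := ih
    obtain ⟨a, ha⟩ := hv i
    refine ⟨x - a • reflRep M.toCoxeterSystem hM w (Pi.single i (1 : ℤ)), ?_⟩
    rw [map_mul, end_mul_apply, reflRep_simple, refl_eq, map_sub, hx, map_zsmul, ha]
    module

/-- The centre is trivial if some vector is fixed modulo `m` and not equal to its negative modulo `m`. -/
theorem center_one (hM : Compat M (mat rows l)) (m : ℤ) (v : Fin l → ℤ)
    (hv : ∀ i, m ∣ fnl (mat rows l) i v) (k : Fin l) (hk : ¬ m ∣ 2 * v k) (d : Fin l → ℕ) (r : Fin l)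
    (hd : ∀ i, i ≠ r → ∃ j, d j < d i ∧ mat rows l i j ≠ 0) :
    Subgroup.center M.Group = ⊥ := by
  rw [Subgroup.eq_bot_iff_forall]
  intro z hz
  rcases center_scalar_one hM hz d r hd with h | h
  · exact h
  · exfalso
    obtain ⟨x, hx⟩ := fixed_mod hM m v hv z
    rw [h] at hx
    have h1 : (-v) k = (v + m • x) k := congrFun hx k
    simp only [Pi.neg_apply, Pi.add_apply, Pi.smul_apply, smul_eq_mul] at h1
    exact hk ⟨-x k, by linarith⟩

end Cfsg.Agent.H138.CoxGen
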