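import Cfsg.Agent.ChevalleyStructure.XUnit
import Cfsg.Agent.S1031
import Cfsg.Agent.S1025
import Cfsg.Prelude.Def_ChevAutomorphisms

/-!
# Root subgroups reached from one root subgroup by the monomial subgroup (helper138)

`Has M r`: the subgroup `M` contains all root elements `x_r(t)`. If `M` contains the monomial subgroup, then `Has M`
is stable under the reflections `reflectRoot`; a breadth first search in the kernel gives the orbits.
-/

set_option autoImplicit false

namespace Cfsg.Agent.H138.RootReach

open Cfsg.Lie Cfsg.Agent.ChevalleyStructure.XUnit Cfsg.Agent.ChevalleyStructure.Unitriangular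

/-- One step of the search: frontier and visited set (as a bit mask). -/
def expand (D : ChevalleyDatum) (r : ℕ) (l : List ℕ) (acc : List ℕ × ℕ) : List ℕ × ℕ :=
  match l with
  | [] => acc
  | i :: l => let s := D.reflectRoot i r
    expand D r l (if acc.2.testBit s then acc else (s :: acc.1, acc.2 ||| (1 <<< s)))

/-- Breadth first search. -/
def bfs (D : ChevalleyDatum) : ℕ → List ℕ → ℕ → ℕ
  | 0, _, m => m
  | _ + 1, [], m => m
  | f + 1, r :: rs, m =>
    if r < D.nroots then
      let p := expand D r (List.range D.rank) (rs, m)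
      bfs D f p.1 p.2
    else bfs D f rs m

/-- The visited set of the search started at `r`. -/
def orbMask (D : ChevalleyDatum) (r : ℕ) : ℕ := bfs D (D.nroots + 1) [r] (1 <<< r)

variable {D : ChevalleyDatum} {F : Type*} [Field F]

/-- `M` contains all root elements of the root `r`. -/
def Has (M : Subgroup (GL D.Idx F)) (r : ℕ) : Prop :=
  ∀ (g : GL D.Idx F) (t : F), (g : Matrix D.Idx D.Idx F) = D.x F r t → g ∈ M

theorem has_of_le {M : Subgroup (GL D.Idx F)} {r : ℕ} (h : D.rootSubgroup F r ≤ M) : Has M r :=
  fun _ t ht => h (Subgroup.subset_closure ⟨t, ht⟩)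

theorem group_le {M : Subgroup (GL D.Idx F)} (h : ∀ r < D.nroots, Has M r) : D.group F ≤ M := by
  refine (Subgroup.closure_le _).2 ?_
  rintro g ⟨r, t, hg⟩
  refine h r r.2 g t (hg.trans ?_)
  have e : D.x F (r : ℕ) t = D.xMat F r t := dif_pos r.2
  exact e.symm

theorem simple_lt (hD : D ∈ [chevG2, chevB2, chevD4, chevF4, chevE6, chevE7, chevE8]) {i : ℕ}
    (hi : i < D.rank) : D.simple i < D.nroots := by
  have key : ∀ D ∈ [chevG2, chevB2, chevD4, chevF4, chevE6, chevE7, chevE8],
      ∀ i < D.rank, D.simple i < D.nroots := by decide +kernel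
  exact key D hD i hi

theorem has_reflect (hD : D ∈ [chevG2, chevB2, chevD4, chevF4, chevE6, chevE7, chevE8])
    {M : Subgroup (GL D.Idx F)} (hM : D.monomialSubgroup F ≤ M) {i s : ℕ} (hi : i < D.rank)
    (hs : s < D.nroots) (h : Has M s) : Has M (D.reflectRoot i s) := by
  intro g t hg
  have ho := orderCheck_of_mem hD
  obtain ⟨η, hη, hc⟩ := S1031.result (F := F) D hD i s hi hs
  have hηη : (η : F) * ((η : F) * t) = t := by
    rcases hη with rfl | rfl <;> simp
  have hn : nU ho (D.simple i) (1 : F) ∈ M := hM (nU_one_mem_monomial ho (simple_lt hD hi))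
  have e : g = nU ho (D.simple i) (1 : F) * xU ho s ((η : F) * t) * (nU ho (D.simple i) (1 : F))⁻¹ := by
    rw [eq_mul_inv_iff_mul_eq]
    refine Units.ext ?_
    rw [Units.val_mul, Units.val_mul, coe_nU, coe_xU, hc, hηη, hg]
  rw [e]
  exact mul_mem (mul_mem hn (h _ _ (coe_xU ho _ _))) (inv_mem hn)

theorem expand_sound {P : ℕ → Prop} {r : ℕ} (l : List ℕ) (hP : ∀ i ∈ l, P (D.reflectRoot i r))
    (acc : List ℕ × ℕ) (h1 : ∀ s ∈ acc.1, P s) (h2 : ∀ s, acc.2.testBit s = true → P s) :
    (∀ s ∈ (expand D r l acc).1, P s) ∧ ∀ s, (expand D r l acc).2.testBit s = true → P s := by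
  induction l generalizing acc with
  | nil => exact ⟨h1, h2⟩
  | cons i l ih =>
    have hi := hP i (List.mem_cons_self ..)
    have hl := fun j hj => hP j (List.mem_cons_of_mem _ hj)
    refine ih hl _ ?_ ?_
    · split_ifs
      · exact h1
      · intro s hs
        rcases List.mem_cons.1 hs with rfl | hs
        · exact hi
        · exact h1 s hs
    · split_ifs
      · exact h2
      · intro s hs
        change (acc.2 ||| 1 <<< _).testBit s = true at hs
        rw [Nat.testBit_or, Bool.or_eq_true] at hs
        rcases hs with hs | hs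
        · exact h2 s hs
        · rw [Nat.one_shiftLeft, Nat.testBit_two_pow] at hs
          rw [← of_decide_eq_true hs]
          exact hi

theorem bfs_sound {P : ℕ → Prop}
    (hP : ∀ i < D.rank, ∀ r < D.nroots, P r → P (D.reflectRoot i r)) (f : ℕ) (l : List ℕ) (m : ℕ)
    (h1 : ∀ s ∈ l, P s) (h2 : ∀ s, m.testBit s = true → P s) :
    ∀ s, (bfs D f l m).testBit s = true → P s := by
  induction f generalizing l m with
  | zero => exact h2
  | succ f ih =>
    match l, h1 with
    | [], _ => exact h2
    | r :: rs, h1 =>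
      have hrs := fun s hs => h1 s (List.mem_cons_of_mem _ hs)
      rw [bfs]
      split_ifs with hr
      · have := expand_sound (D := D) (P := P) (r := r) (List.range D.rank)
          (fun i hi => hP i (List.mem_range.1 hi) r hr (h1 r (List.mem_cons_self ..))) (rs, m) hrs h2
        exact ih _ _ this.1 this.2
      · exact ih _ _ hrs h2

theorem orbMask_sound {P : ℕ → Prop}
    (hP : ∀ i < D.rank, ∀ r < D.nroots, P r → P (D.reflectRoot i r)) {r : ℕ} (hr : P r) {s : ℕ}
    (hs : (orbMask D r).testBit s = true) : P s := by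
  refine bfs_sound hP _ _ _ ?_ ?_ s hs
  · intro s hs
    rw [List.mem_singleton] at hs
    rwa [hs]
  · intro s hs
    rw [Nat.one_shiftLeft, Nat.testBit_two_pow] at hs
    rwa [← of_decide_eq_true hs]

theorem has_of_orb (hD : D ∈ [chevG2, chevB2, chevD4, chevF4, chevE6, chevE7, chevE8])
    {M : Subgroup (GL D.Idx F)} (hM : D.monomialSubgroup F ≤ M) {r s : ℕ} (h : Has M r)
    (hs : (orbMask D r).testBit s = true) : Has M s :=
  orbMask_sound (fun _ hi _ hr h => has_reflect hD hM hi hr h) h hs

/-- The commutator formula with one factor on the right-hand side. -/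
theorem has_of_comm (hD : D ∈ [chevG2, chevB2, chevD4, chevF4, chevE6, chevE7, chevE8])
    {M : Subgroup (GL D.Idx F)} {r s k : ℕ} {c : ℤ} (hr : r < D.nroots) (hs : s < D.nroots)
    (hrs : s ≠ r) (hneg : s ≠ D.neg r) (hc : (c : F) ≠ 0) (hk : D.commTerms r s = [(k, c, 1, 1)])
    (h1 : Has M r) (h2 : Has M s) : Has M k := by
  intro g v hg
  have ho := orderCheck_of_mem hD
  have h := S1025.result (F := F) D hD r s hr hs hrs hneg (-(v / c)) 1
  have hw : D.wordMat F (D.commWord F r s (-(v / c)) 1) = D.x F k v := by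
    rw [ChevalleyDatum.commWord, hk]
    change D.x F k ((c : F) * (- -(v / c)) ^ 1 * 1 ^ 1) * 1 = _
    rw [mul_one, neg_neg, pow_one, pow_one, mul_one, mul_div_cancel₀ _ hc]
  rw [hw] at h
  have e : g = (xU ho r (-(v / (c : F))) * xU ho s 1)⁻¹ * (xU ho s 1 * xU ho r (-(v / (c : F)))) := by
    rw [eq_inv_mul_iff_mul_eq]
    refine Units.ext ?_
    rw [Units.val_mul, Units.val_mul, Units.val_mul, coe_xU, coe_xU, hg, h]
  rw [e]
  exact mul_mem (inv_mem (mul_mem (h1 _ _ (coe_xU ho _ _)) (h2 _ _ (coe_xU ho _ _))))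
    (mul_mem (h2 _ _ (coe_xU ho _ _)) (h1 _ _ (coe_xU ho _ _)))

/-- All roots are in the orbit of the `i`-th fundamental root. -/
def cover (D : ChevalleyDatum) (i : ℕ) : Bool :=
  let m := orbMask D (D.simple i)
  (List.range D.nroots).all fun k => m.testBit k

/-- All roots are in the orbits of the `i`-th and the `j`-th fundamental root. -/
def coverTwo (D : ChevalleyDatum) (i j : ℕ) : Bool :=
  let m := orbMask D (D.simple i) ||| orbMask D (D.simple j)
  (List.range D.nroots).all fun k => m.testBit k

/-- All roots are in the orbit of the `i`-th fundamental root or of `k`, a root given by a commutator with coefficient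
`±c` of the roots `r`, `s` of the first orbit. -/
def coverComm (D : ChevalleyDatum) (c : ℤ) (i r s k : ℕ) : Bool :=
  let m := orbMask D (D.simple i)
  let m' := m ||| orbMask D k
  m.testBit r && m.testBit s && Nat.blt r D.nroots && Nat.blt s D.nroots && !(s == r) && !(s == D.neg r) &&
    (D.commTerms r s == [(k, c, 1, 1)] || D.commTerms r s == [(k, -c, 1, 1)]) &&
    (List.range D.nroots).all fun j => m'.testBit j

/-- Apply reflections. -/
def path (D : ChevalleyDatum) : List ℕ → ℕ → Option ℕ
  | [], r => some r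
  | i :: l, r => if i < D.rank ∧ r < D.nroots then path D l (D.reflectRoot i r) else none

theorem path_sound {P : ℕ → Prop}
    (hP : ∀ i < D.rank, ∀ r < D.nroots, P r → P (D.reflectRoot i r)) (l : List ℕ) (r s : ℕ) (hr : P r)
    (h : path D l r = some s) : P s := by
  induction l generalizing r with
  | nil =>
    rw [path, Option.some.injEq] at h
    rwa [← h]
  | cons i l ih =>
    rw [path] at h
    split_ifs at h with hc
    exact ih _ (hP i hc.1 r hc.2 hr) h

theorem le_of_cover (hD : D ∈ [chevG2, chevB2, chevD4, chevF4, chevE6, chevE7, chevE8]) {i : ℕ}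
    (hc : cover D i = true) :
    D.group F ≤ D.monomialSubgroup F ⊔ D.rootSubgroup F (D.simple i) := by
  refine group_le fun k hk => ?_
  rw [cover, List.all_eq_true] at hc
  exact has_of_orb hD le_sup_left (has_of_le le_sup_right) (hc k (List.mem_range.2 hk))

theorem le_of_coverTwo (hD : D ∈ [chevG2, chevB2, chevD4, chevF4, chevE6, chevE7, chevE8]) {i j : ℕ}
    (hc : coverTwo D i j = true) :
    D.group F ≤ D.monomialSubgroup F ⊔ D.rootSubgroup F (D.simple i) ⊔ D.rootSubgroup F (D.simple j) := by
  refine group_le fun k hk => ?_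
  rw [coverTwo, List.all_eq_true] at hc
  have h := hc k (List.mem_range.2 hk)
  rw [Nat.testBit_or, Bool.or_eq_true] at h
  rcases h with h | h
  · exact has_of_orb hD (le_sup_left.trans le_sup_left)
      (has_of_le (le_sup_right.trans le_sup_left)) h
  · exact has_of_orb hD (le_sup_left.trans le_sup_left) (has_of_le le_sup_right) h

/-- One search started at the root `j`, which is joined to the root `i` by a list of reflections. -/
theorem le_of_path (hD : D ∈ [chevG2, chevB2, chevD4, chevF4, chevE6, chevE7, chevE8]) {i j : ℕ}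
    (hc : cover D j = true) {l : List ℕ} (hl : path D l (D.simple i) = some (D.simple j)) :
    D.group F ≤ D.monomialSubgroup F ⊔ D.rootSubgroup F (D.simple i) := by
  refine group_le fun k hk => ?_
  rw [cover, List.all_eq_true] at hc
  refine has_of_orb hD le_sup_left ?_ (hc k (List.mem_range.2 hk))
  exact path_sound (P := Has _) (fun _ hi _ hr h => has_reflect hD le_sup_left hi hr h) l _ _
    (has_of_le le_sup_right) hl

theorem le_of_coverComm (hD : D ∈ [chevG2, chevB2, chevD4, chevF4, chevE6, chevE7, chevE8]) {i r s k : ℕ}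
    {c : ℤ} (hcF : (c : F) ≠ 0) (hc : coverComm D c i r s k = true) :
    D.group F ≤ D.monomialSubgroup F ⊔ D.rootSubgroup F (D.simple i) := by
  refine group_le fun j hj => ?_
  simp only [coverComm, Bool.and_eq_true, Bool.or_eq_true, Bool.not_eq_true', beq_iff_eq,
    beq_eq_false_iff_ne, Nat.blt_eq, List.all_eq_true] at hc
  obtain ⟨⟨⟨⟨⟨⟨⟨h1, h2⟩, hr⟩, hs⟩, h3⟩, h4⟩, h5⟩, h⟩ := hc
  have h := h j (List.mem_range.2 hj)
  have hM : D.monomialSubgroup F ≤ D.monomialSubgroup F ⊔ D.rootSubgroup F (D.simple i) := le_sup_left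
  have h0 : Has (D.monomialSubgroup F ⊔ D.rootSubgroup F (D.simple i)) (D.simple i) :=
    has_of_le le_sup_right
  have hk : Has (D.monomialSubgroup F ⊔ D.rootSubgroup F (D.simple i)) k := by
    have a1 := has_of_orb hD hM h0 h1
    have a2 := has_of_orb hD hM h0 h2
    rcases h5 with h5 | h5
    · exact has_of_comm hD hr hs h3 h4 hcF h5 a1 a2
    · exact has_of_comm hD hr hs h3 h4 (by rwa [Int.cast_neg, neg_ne_zero]) h5 a1 a2
  rw [Nat.testBit_or, Bool.or_eq_true] at h
  rcases h with h | h
  · exact has_of_orb hD hM h0 h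
  · exact has_of_orb hD hM hk h

end Cfsg.Agent.H138.RootReach
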