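import Cfsg.Agent.H138.CoxEng

/-!
# The spider relations in an abstract extension (for S5590)

If `x 1, ..., x 11` satisfy the Coxeter relations of `Y433` in `E`, if `π : E →* G` has abelian kernel without elements of
order `2` or `3`, and if the three additional relators hold after applying `π`, then they hold in `E`.
-/

set_option autoImplicit false

namespace Cfsg.Agent.H138.Spider

open Cfsg.Agent.H138.CoxEng

section Cube

variable {E : Type*} [Group E]

/-- The conjugate `w ^ k * u * w ^ (-k)`. -/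
def cj (u w : E) (k : ℕ) : E := w ^ k * u * (w ^ k)⁻¹

theorem cj_add (u w : E) (j k : ℕ) : cj u w (j + k) = w ^ j * cj u w k * (w ^ j)⁻¹ := by
  simp only [cj, pow_add, mul_inv_rev]
  group

theorem cj_commute {u w : E} {n : ℕ} (hc : ∀ k < n, Commute u (cj u w k)) :
    ∀ j < n, ∀ k < n, Commute (cj u w j) (cj u w k) := by
  have key : ∀ j k : ℕ, j ≤ k → k < n → Commute (cj u w j) (cj u w k) := by
    intro j k hjk hk
    obtain ⟨i, rfl⟩ := Nat.exists_eq_add_of_le hjk
    have h := hc i (by omega)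
    rw [cj_add]
    have h2 : cj u w j = w ^ j * u * (w ^ j)⁻¹ := rfl
    rw [h2]
    exact (Commute.conj_iff _).2 h
  intro j hj k hk
  rcases le_total j k with h | h
  · exact key j k h hk
  · exact (key k j h hj).symm

theorem cj_cube {u : E} (hu : u ^ 3 = 1) (w : E) (k : ℕ) : (cj u w k) ^ 3 = 1 := by
  rw [cj, conj_pow, hu, mul_one, mul_inv_cancel]

theorem cube_pow {u w : E} {n : ℕ} (hu : u ^ 3 = 1) (hc : ∀ k < n, Commute u (cj u w k)) (hw : w ^ n = 1) :
    ((u * w) ^ n) ^ 3 = 1 := by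
  have key : ∀ k ≤ n, (∀ m < n, Commute ((u * w) ^ k * (w ^ k)⁻¹) (cj u w m)) ∧
      ((u * w) ^ k * (w ^ k)⁻¹) ^ 3 = 1 := by
    intro k
    induction k with
    | zero =>
      intro _
      simp
    | succ k ih =>
      intro hk
      obtain ⟨h1, h2⟩ := ih (by omega)
      have hq : (u * w) ^ (k + 1) * (w ^ (k + 1))⁻¹ = ((u * w) ^ k * (w ^ k)⁻¹) * cj u w k := by
        rw [pow_succ (u * w), pow_succ w, mul_inv_rev, cj]
        simp only [mul_assoc, mul_inv_cancel_left, inv_mul_cancel_left]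
      rw [hq]
      refine ⟨fun m hm => (h1 m hm).mul_left (cj_commute hc k (by omega) m hm), ?_⟩
      rw [(h1 k (by omega)).mul_pow, h2, cj_cube hu, mul_one]
  have h := (key n le_rfl).2
  rwa [hw, inv_one, mul_one] at h

end Cube

/-! ### The words -/

def c1 : List ℕ := [5, 4, 3, 6, 7, 8, 9]
def c2 : List ℕ := [5, 9, 10, 6, 7, 8, 4]
def c3 : List ℕ := [5, 4, 3, 6, 9, 10, 11]
def d6 : List ℕ := pw [5, 7, 4, 9, 6, 8] 5
def sW : List ℕ := [5, 4, 3, 5, 6, 7, 5, 9, 10]
def rA : List ℕ := [3, 4, 5, 6, 7, 8, 9, 5, 4, 3, 6, 5, 4, 7, 6, 5, 9, 5, 6, 7, 4, 5, 6, 3, 4, 5, 9, 8, 7, 6, 5, 4, 3]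
def rB : List ℕ := [10, 9, 5, 4, 6, 5, 7, 6, 8, 7, 9, 5, 4, 6, 5, 9, 10, 9, 5, 6, 4, 5, 9, 7, 8, 6, 7, 5, 6, 4, 5, 9, 10]
def wD : List ℕ := [8, 7, 6, 5, 4, 3]
def tT : List ℕ := [9, 5, 4, 3, 6, 5, 4, 7, 6, 5, 9, 5, 6, 7, 4, 5, 6, 3, 4, 5, 9, 10]
def uW : List ℕ := [5, 4, 3, 4, 5, 6, 7, 9, 5, 4, 6, 5, 9, 10, 9, 5, 6, 4, 5, 9, 7, 6]
def wW : List ℕ := [6, 7, 9, 5, 4, 6, 5, 9, 10, 9, 5, 6, 4, 5, 9, 7, 6, 5, 4, 5, 6, 7, 5, 9, 10]
def gW : List ℕ := [9, 6, 7, 5, 6, 4, 5, 9]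

theorem k1 : chk (pw c1 9) (pw c1 9).reverse = true := by decide +kernel
theorem k3 : chk (pw c3 9) (pw c3 9).reverse = true := by decide +kernel
theorem k4 : chk (pw c1 9) (d6 ++ rA) = true := by decide +kernel
theorem k5 : chk (pw c2 9) (d6 ++ rB) = true := by decide +kernel
theorem k6 : chk (rA ++ rA) [] = true := by decide +kernel
theorem k7 : chk (rB ++ rB) [] = true := by decide +kernel
theorem k8 : chk (pw (rB ++ [10]) 3) [] = true := by decide +kernel
theorem k9 : chk (pw c2 9 ++ rB) (rB ++ pw c2 9) = true := by decide +kernel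
theorem k10 : chk (pw c2 9 ++ [10]) ([10] ++ pw c2 9) = true := by decide +kernel
theorem k11 : chk (pw c2 9 ++ pw c2 9) [] = true := by decide +kernel
theorem k12 : chk (wD ++ (rA ++ ([10] ++ wD.reverse))) tT = true := by decide +kernel
theorem k13 : chk ([10] ++ (pw sW 10 ++ [10])) (pw sW 10 ++ pw tT.reverse 3) = true := by decide +kernel
theorem k14 : chk sW (uW ++ wW) = true := by decide +kernel
theorem k15 : chk uW (gW ++ (tT ++ gW.reverse)) = true := by decide +kernel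
theorem k16 : chk (pw wW 10) [] = true := by decide +kernel
theorem k17 : ∀ k : Fin 10, chk (uW ++ (pw wW k ++ (uW ++ (pw wW k).reverse)))
    ((pw wW k ++ (uW ++ (pw wW k).reverse)) ++ uW) = true := by decide +kernel

theorem gG : good tT = true ∧ good gW = true ∧ good wD = true ∧ good (pw c1 9) = true ∧ good (pw c3 9) = true := by
  decide +kernel

theorem gw (k : ℕ) : good (pw wW k) = true := by
  induction k with
  | zero => rfl
  | succ k ih =>
    have h : good wW = true := by decide +kernel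
    simp only [pw, good, List.all_append, Bool.and_eq_true] at ih h ⊢
    exact ⟨h, ih⟩

/-- **The spider relations lift.** -/
theorem lift {E G : Type*} [Group E] [Group G] (π : E →* G) (x : ℕ → E)
    (sq : ∀ i, 1 ≤ i → i ≤ 11 → x i * x i = 1)
    (cm : ∀ i j, 1 ≤ i → i < j → j ≤ 11 →
      (i, j) ∉ [(1,2),(2,3),(3,4),(4,5),(5,6),(6,7),(7,8),(5,9),(9,10),(10,11)] → x i * x j = x j * x i)
    (br : ∀ i j, (i, j) ∈ [(1,2),(2,3),(3,4),(4,5),(5,6),(6,7),(7,8),(5,9),(9,10),(10,11)] →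
      x i * x j * x i = x j * x i * x j)
    (_ab : ∀ a b, π a = 1 → π b = 1 → a * b = b * a)
    (n2 : ∀ a, π a = 1 → a * a = 1 → a = 1) (n3 : ∀ a, π a = 1 → a * a * a = 1 → a = 1)
    (g0 : π ((x 5 * x 4 * x 3 * x 5 * x 6 * x 7 * x 5 * x 9 * x 10) ^ 10) = 1)
    (g1 : π ((x 5 * x 4 * x 3 * x 6 * x 7 * x 8 * x 9) ^ 9) = 1)
    (g2 : π ((x 5 * x 4 * x 3 * x 6 * x 9 * x 10 * x 11) ^ 9) = 1) :
    (x 5 * x 4 * x 3 * x 5 * x 6 * x 7 * x 5 * x 9 * x 10) ^ 10 = 1 ∧
      (x 5 * x 4 * x 3 * x 6 * x 7 * x 8 * x 9) ^ 9 = 1 ∧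
      (x 5 * x 4 * x 3 * x 6 * x 9 * x 10 * x 11) ^ 9 = 1 := by
  have sq' : ∀ i, 1 ≤ i → i ≤ 11 → x i * x i = 1 := sq
  have cm' : ∀ i j, 1 ≤ i → i < j → j ≤ 11 → (i, j) ∉ edges → x i * x j = x j * x i := cm
  have br' : ∀ i j, (i, j) ∈ edges → x i * x j * x i = x j * x i * x j := br
  clear cm br sq
  have we : ∀ u v : List ℕ, chk u v = true → P x u = P x v := wordEq sq' cm' br'
  have hs : x 5 * x 4 * x 3 * x 5 * x 6 * x 7 * x 5 * x 9 * x 10 = P x sW := by
    simp [P, sW, mul_assoc]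
  have h1 : x 5 * x 4 * x 3 * x 6 * x 7 * x 8 * x 9 = P x c1 := by
    simp [P, c1, mul_assoc]
  have h3 : x 5 * x 4 * x 3 * x 6 * x 9 * x 10 * x 11 = P x c3 := by
    simp [P, c3, mul_assoc]
  rw [hs] at g0 ⊢
  rw [h1] at g1 ⊢
  rw [h3] at g2 ⊢
  clear hs h1 h3
  -- (1)
  have z1 : P x c1 ^ 9 = 1 := by
    refine n2 _ g1 ?_
    have h := we _ _ k1
    rw [P_reverse sq' _ gG.2.2.2.1, P_pw] at h
    nth_rewrite 1 [h]
    exact inv_mul_cancel _
  have z3 : P x c3 ^ 9 = 1 := by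
    refine n2 _ g2 ?_
    have h := we _ _ k3
    rw [P_reverse sq' _ gG.2.2.2.2, P_pw] at h
    nth_rewrite 1 [h]
    exact inv_mul_cancel _
  refine ⟨?_, z1, z3⟩
  -- (2)
  obtain ⟨a, ha⟩ : ∃ a, a = P x rA := ⟨_, rfl⟩
  obtain ⟨b, hb⟩ : ∃ b, b = P x rB := ⟨_, rfl⟩
  obtain ⟨t, ht⟩ : ∃ t, t = x 10 := ⟨_, rfl⟩
  obtain ⟨z, hz⟩ : ∃ z, z = P x c2 ^ 9 := ⟨_, rfl⟩
  obtain ⟨d, hd⟩ : ∃ d, d = P x d6 := ⟨_, rfl⟩
  have e4 : 1 = d * a := by
    have h := we _ _ k4
    rw [P_pw, z1, P_append] at h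
    rw [hd, ha]; exact h
  have e5 : z = d * b := by
    have h := we _ _ k5
    rw [P_pw, P_append] at h
    rw [hd, hb, hz]; exact h
  have e6 : a * a = 1 := by
    have h := we _ _ k6
    rw [P_append, P_nil] at h
    rw [ha]; exact h
  have e7 : b * b = 1 := by
    have h := we _ _ k7
    rw [P_append, P_nil] at h
    rw [hb]; exact h
  have e8 : (b * t) ^ 3 = 1 := by
    have h := we _ _ k8
    rw [P_pw, P_append, P_single, P_nil] at h
    rw [hb, ht]; exact h
  have e9 : z * b = b * z := by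
    have h := we _ _ k9
    rw [P_append, P_append, P_pw] at h
    rw [hb, hz]; exact h
  have e10 : z * t = t * z := by
    have h := we _ _ k10
    rw [P_append, P_append, P_pw, P_single] at h
    rw [ht, hz]; exact h
  have e11 : z * z = 1 := by
    have h := we _ _ k11
    rw [P_append, P_pw, P_nil] at h
    rw [hz]; exact h
  -- (3)
  have ha' : a = z * b := by
    have h2 : d = a := by
      have : d * a = a * a := by rw [← e4, e6]
      exact mul_right_cancel this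
    rw [e5, h2, mul_assoc, e7, mul_one]
  have hat : (a * t) ^ 3 = z := by
    have hc : Commute z (b * t) := (show Commute z b from e9).mul_right (show Commute z t from e10)
    rw [ha', mul_assoc, hc.mul_pow, e8, mul_one, pow_succ, pow_two, e11, one_mul]
  -- (4)
  have e12 : P x wD * (a * (t * (P x wD)⁻¹)) = P x tT := by
    have h := we _ _ k12
    rw [P_append, P_append, P_append, P_single, P_reverse sq' _ gG.2.2.1] at h
    rw [ha, ht]; exact h
  have e12' : P x tT ^ 3 = P x wD * z * (P x wD)⁻¹ := by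
    rw [← hat, ← conj_pow, ← e12]
    simp only [mul_assoc]
  -- (5)
  have e13 : t * (P x sW ^ 10 * t) = P x sW ^ 10 * (P x tT)⁻¹ ^ 3 := by
    have h := we _ _ k13
    rw [P_append, P_append, P_append, P_pw, P_pw, P_single, P_reverse sq' _ gG.1] at h
    rw [ht]; exact h
  have hT : P x tT ^ 3 = 1 := by
    have h := congrArg π e13
    have htt : t * t = 1 := by rw [ht]; exact sq' 10 (by norm_num) (by norm_num)
    rw [map_mul, map_mul, map_mul, g0, one_mul, one_mul, ← map_mul, htt, map_one, inv_pow, map_inv, eq_comm,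
      inv_eq_one, e12', map_mul, map_mul, map_inv, mul_inv_eq_one, mul_eq_left] at h
    rw [e12', n2 z h e11, mul_one, mul_inv_cancel]
  -- (6), (7)
  have e14 : P x sW = P x uW * P x wW := by
    have h := we _ _ k14
    rw [P_append] at h
    exact h
  have hu : P x uW ^ 3 = 1 := by
    have h := we _ _ k15
    rw [P_append, P_append, P_reverse sq' _ gG.2.1, ← mul_assoc] at h
    rw [h, conj_pow, hT, mul_one, mul_inv_cancel]
  have hw : P x wW ^ 10 = 1 := by
    have h := we _ _ k16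
    rw [P_pw, P_nil] at h
    exact h
  have hcm : ∀ k < 10, Commute (P x uW) (cj (P x uW) (P x wW) k) := by
    intro k hk
    have h := we _ _ (k17 ⟨k, hk⟩)
    simp only [P_append, P_reverse sq' _ (gw k), P_pw] at h
    rw [commute_iff_eq, cj]
    simp only [mul_assoc] at h ⊢
    exact h
  have hfin : (P x sW ^ 10) ^ 3 = 1 := by
    rw [e14]
    exact cube_pow hu hcm hw
  refine n3 _ g0 ?_
  rwa [pow_succ, pow_two] at hfin

end Cfsg.Agent.H138.Spider
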